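import Mathlib
import Cfsg.Agent.Lib.Helper19.KAlt.Defs

/-!
# KALT (S0747) package [RED2]: the non-Sylow case (orbit lengths mod `p`)
-/

set_option autoImplicit false

namespace Cfsg.Agent.Lib.Helper88.KAlt

open Cfsg.Agent.Lib.Helper75.LW Cfsg.Agent.Lib.Helper19.KAlt

universe u

variable {α : Type u}

/-- an element normalising `Q` preserves the fixed-point set of `Q`. -/
theorem pres_of_normalizer {Q : Subgroup (Equiv.Perm α)} {F : Finset α}
    (hfix : ∀ a, a ∈ F ↔ ∀ q ∈ Q, q a = a) {g : Equiv.Perm α}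
    (hg : g ∈ Subgroup.normalizer (Q : Set (Equiv.Perm α))) : ∀ a, g a ∈ F ↔ a ∈ F := by
  intro a
  constructor
  · intro h
    rw [hfix] at h ⊢
    intro q hq
    have h1 : g * q * g⁻¹ ∈ Q := (Subgroup.mem_normalizer_iff.mp hg q).mp hq
    have h2 : g (q a) = g a := by simpa [Equiv.Perm.mul_apply] using h _ h1
    exact g.injective h2
  · intro h
    rw [hfix] at h ⊢
    intro q hq
    have h1 : g⁻¹ * q * g ∈ Q := (Subgroup.mem_normalizer_iff''.mp hg q).mp hq
    have h2 := h _ h1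
    simp only [Equiv.Perm.mul_apply] at h2
    have h3 := congrArg g h2
    simpa using h3

/-- transport of a `p`-subgroup of a pointwise stabiliser along `k`-transitivity. -/
theorem exists_conj_pgroup [Fintype α] [DecidableEq α] {G : Subgroup (Equiv.Perm α)} {k p : ℕ}
    (hT : HT G k) {L : Finset α} (hL : L.card = k) {R : Subgroup (Equiv.Perm α)}
    (hRL : R ≤ PS G L) (hRp : IsPGroup p ↥R) (L' : Finset α) (hL' : L'.card = k) :
    ∃ R' : Subgroup (Equiv.Perm α), R' ≤ PS G L' ∧ IsPGroup p ↥R' ∧ Nat.card R' = Nat.card R := by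
  let e : L ≃ Fin k := L.equivFinOfCardEq hL
  let e' : L' ≃ Fin k := L'.equivFinOfCardEq hL'
  let x : Fin k ↪ α := ⟨fun i => ((e.symm i : L) : α), fun i j h => e.symm.injective (Subtype.ext h)⟩
  let y : Fin k ↪ α :=
    ⟨fun i => ((e'.symm i : L') : α), fun i j h => e'.symm.injective (Subtype.ext h)⟩
  obtain ⟨g, hgG, hg⟩ := hT x y
  refine ⟨R.map (MulAut.conj g).toMonoidHom, ?_, hRp.map _, ?_⟩
  · rintro _ ⟨r, hr, rfl⟩
    have hr' := hRL hr
    rw [mem_PS] at hr' ⊢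
    refine ⟨?_, ?_⟩
    · simp only [MulEquiv.toMonoidHom_eq_coe, MonoidHom.coe_coe, MulAut.conj_apply]
      exact G.mul_mem (G.mul_mem hgG hr'.1) (G.inv_mem hgG)
    · intro b hb
      have hb' : b = y (e' ⟨b, hb⟩) := by
        show b = ((e'.symm (e' ⟨b, hb⟩) : L') : α)
        rw [Equiv.symm_apply_apply]
      have h1 : g (x (e' ⟨b, hb⟩)) = b := by rw [hg, ← hb']
      have h2 : g⁻¹ b = x (e' ⟨b, hb⟩) := by
        rw [Equiv.Perm.inv_eq_iff_eq]; exact h1.symm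
      have h3 : r (x (e' ⟨b, hb⟩)) = x (e' ⟨b, hb⟩) := hr'.2 _ (e.symm _).2
      simp only [MulEquiv.toMonoidHom_eq_coe, MonoidHom.coe_coe, MulAut.conj_apply,
        Equiv.Perm.mul_apply]
      rw [h2, h3, h1]
  · exact Subgroup.card_map_of_injective (MulAut.conj g).injective

/-- the `p`-subgroup `R_u`. -/
theorem exists_Ru [Fintype α] [DecidableEq α] {G : Subgroup (Equiv.Perm α)} {k p : ℕ}
    {Q : Subgroup (Equiv.Perm α)} {F : Finset α} (hM : MaxP G k p Q F)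
    (hbig : ∀ L' : Finset α, L'.card = k → ∃ R' : Subgroup (Equiv.Perm α), R' ≤ PS G L' ∧
      IsPGroup p ↥R' ∧ Nat.card Q < Nat.card R')
    {A : Finset α} (hAF : A ⊆ F) (hA : A.card + 1 = k) {u : α} (huF : u ∈ F) (huA : u ∉ A) :
    ∃ R : Subgroup (Equiv.Perm α),
      R ≤ PS G A ⊓ Subgroup.normalizer (Q : Set (Equiv.Perm α)) ∧ IsPGroup p ↥R ∧
      (∀ r ∈ R, r u = u) ∧ ∀ w, w ∉ A → w ≠ u → ∃ r ∈ R, r w ≠ w := by
  classical
  have hp : Fact p.Prime := ⟨hM.prime⟩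
  have hLc : (insert u A).card = k := by rw [Finset.card_insert_of_notMem huA, hA]
  have hLF : insert u A ⊆ F := Finset.insert_subset huF hAF
  obtain ⟨R', hR'S, hR'p, hR'c⟩ := hbig (insert u A) hLc
  have hQS : Q ≤ PS G (insert u A) := by
    intro q hq
    exact ⟨hM.le hq, fun a ha => (hM.fix a).mp (hLF ha) q hq⟩
  obtain ⟨P₀, hP₀⟩ := (hM.pgrp.comap_subtype (K := PS G (insert u A))).exists_le_sylow
  obtain ⟨P₁, hP₁⟩ := (hR'p.comap_subtype (K := PS G (insert u A))).exists_le_sylow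
  have hc01 : Nat.card P₀ = Nat.card P₁ := by
    rw [Sylow.card_eq_multiplicity, Sylow.card_eq_multiplicity]
  have hcR' : Nat.card R' ≤ Nat.card P₀ := by
    rw [hc01, ← Nat.card_congr (Subgroup.subgroupOfEquivOfLe hR'S).toEquiv]
    exact Subgroup.card_le_of_le hP₁
  set P : Subgroup (Equiv.Perm α) := (P₀ : Subgroup ↥(PS G (insert u A))).map
    (PS G (insert u A)).subtype with hPdef
  have hPS : P ≤ PS G (insert u A) := Subgroup.map_subtype_le _
  have hQP : Q ≤ P := by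
    rw [← Subgroup.map_subgroupOf_eq_of_le hQS]
    exact Subgroup.map_mono hP₀
  have hPp : IsPGroup p ↥P := P₀.isPGroup'.map _
  have hPc : Nat.card P = Nat.card P₀ :=
    Subgroup.card_map_of_injective (Subgroup.subtype_injective _)
  have hnil : Group.IsNilpotent ↥P := hPp.isNilpotent
  have hlt : Q.subgroupOf P < ⊤ := by
    rw [lt_top_iff_ne_top, Ne, Subgroup.subgroupOf_eq_top]
    intro hPQ
    have := Subgroup.card_le_of_le hPQ
    omega
  obtain ⟨x, hxN, hxQ⟩ := SetLike.exists_of_lt (Group.normalizerCondition_of_isNilpotent _ hlt)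
  rw [← Subgroup.subgroupOf_normalizer_eq hQP, Subgroup.mem_subgroupOf] at hxN
  rw [Subgroup.mem_subgroupOf] at hxQ
  set R : Subgroup (Equiv.Perm α) := P ⊓ Subgroup.normalizer (Q : Set (Equiv.Perm α)) with hRdef
  have hQR : Q ≤ R := le_inf hQP Subgroup.le_normalizer
  have hxR : (x : Equiv.Perm α) ∈ R := ⟨x.2, hxN⟩
  have hcard : Nat.card Q < Nat.card R := by
    by_contra hcon
    have := Subgroup.eq_of_le_of_card_ge hQR (not_lt.mp hcon)
    exact hxQ (this ▸ hxR)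
  have hRS : R ≤ PS G (insert u A) := inf_le_left.trans hPS
  refine ⟨R, ?_, hPp.to_le inf_le_left, ?_, ?_⟩
  · intro r hr
    refine ⟨?_, hr.2⟩
    have h1 := hRS hr
    exact ⟨h1.1, fun a ha => h1.2 a (Finset.mem_insert_of_mem ha)⟩
  · intro r hr
    exact (hRS hr).2 u (Finset.mem_insert_self u A)
  · intro w hwA hwu
    by_contra hcon
    push Not at hcon
    have hw : w ∉ insert u A := by
      rw [Finset.mem_insert]; tauto
    have h1 : Nat.card R ≤ Nat.card Q := by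
      refine hM.max R (fun r hr => (hRS hr).1) (hPp.to_le inf_le_left)
        ⟨insert w (insert u A), ?_, ?_⟩
      · rw [Finset.card_insert_of_notMem hw, hLc]
      · intro r hr a ha
        rw [Finset.mem_insert] at ha
        rcases ha with rfl | ha
        · exact hcon r hr
        · exact (hRS hr).2 a ha
    omega

/-- orbit counting mod `p`. -/
theorem exists_map_of_pgroups [Fintype α] [DecidableEq α] {p : ℕ} (hp : p.Prime)
    (N Ru Rv : Subgroup (Equiv.Perm α)) (u v : α) (hRu : Ru ≤ N) (hRv : Rv ≤ N)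
    (hRup : IsPGroup p ↥Ru) (hRvp : IsPGroup p ↥Rv) (hu : ∀ r ∈ Ru, r u = u)
    (hu' : ∀ w, (∃ g ∈ N, g u = w) → w ≠ u → ∃ r ∈ Ru, r w ≠ w)
    (hv' : ∀ w, (∃ g ∈ N, g u = w) → w ≠ v → ∃ r ∈ Rv, r w ≠ w) :
    ∃ g ∈ N, g u = v := by
  classical
  have hpf : Fact p.Prime := ⟨hp⟩
  by_contra hcon
  have horb : ∀ w : α, w ∈ MulAction.orbit ↥N u → ∃ g ∈ N, g u = w := by
    rintro w ⟨g, rfl⟩
    exact ⟨g.1, g.2, rfl⟩
  have h1 := (hRup.comap_subtype (K := N)).card_modEq_card_fixedPoints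
    (MulAction.orbit ↥N u)
  have h2 := (hRvp.comap_subtype (K := N)).card_modEq_card_fixedPoints
    (MulAction.orbit ↥N u)
  have hsm : ∀ (S : Subgroup (Equiv.Perm α)) (r : ↥(S.comap N.subtype))
      (x : ↥(MulAction.orbit ↥N u)), ((r • x : ↥(MulAction.orbit ↥N u)) : α) =
        ((r : ↥N) : Equiv.Perm α) (x : α) := by
    intro S r x
    rfl
  have hf1 : Nat.card (MulAction.fixedPoints ↥(Ru.comap N.subtype) ↥(MulAction.orbit ↥N u)) = 1 := by
    rw [Nat.card_eq_one_iff_unique]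
    refine ⟨⟨?_⟩, ⟨⟨⟨u, MulAction.mem_orbit_self u⟩, ?_⟩⟩⟩
    · rintro ⟨a, ha⟩ ⟨b, hb⟩
      have key : ∀ c : ↥(MulAction.orbit ↥N u),
          c ∈ MulAction.fixedPoints ↥(Ru.comap N.subtype) ↥(MulAction.orbit ↥N u) →
          (c : α) = u := by
        intro c hc
        by_contra hne
        obtain ⟨r, hr, hrc⟩ := hu' c (horb c c.2) hne
        have := hc ⟨⟨r, hRu hr⟩, hr⟩
        exact hrc (by rw [← hsm Ru ⟨⟨r, hRu hr⟩, hr⟩ c, this])
      apply Subtype.ext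
      apply Subtype.ext
      rw [key a ha, key b hb]
    · intro r
      apply Subtype.ext
      rw [hsm]
      exact hu _ r.2
  have hf2 : Nat.card (MulAction.fixedPoints ↥(Rv.comap N.subtype) ↥(MulAction.orbit ↥N u)) = 0 := by
    rw [Nat.card_eq_zero]
    left
    refine ⟨?_⟩
    rintro ⟨c, hc⟩
    have hne : (c : α) ≠ v := by
      intro h
      obtain ⟨g, hg, hgu⟩ := horb c c.2
      exact hcon ⟨g, hg, hgu.trans h⟩
    obtain ⟨r, hr, hrc⟩ := hv' c (horb c c.2) hne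
    have := hc ⟨⟨r, hRv hr⟩, hr⟩
    exact hrc (by rw [← hsm Rv ⟨⟨r, hRv hr⟩, hr⟩ c, this])
  rw [hf1] at h1
  rw [hf2] at h2
  have h3 : 1 ≡ 0 [MOD p] := h1.symm.trans h2
  have h4 : p ∣ 1 := (Nat.modEq_zero_iff_dvd.mp h3)
  exact hp.one_lt.ne' (Nat.dvd_one.mp h4)

theorem pkgRed2 : PkgRed2.{u} := by
  intro α _ _ G k p Q F hM hT hex
  classical
  obtain ⟨L, hL, R, hRL, hRp, hRc⟩ := hex
  have hbig : ∀ L' : Finset α, L'.card = k → ∃ R' : Subgroup (Equiv.Perm α), R' ≤ PS G L' ∧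
      IsPGroup p ↥R' ∧ Nat.card Q < Nat.card R' := by
    intro L' hL'
    obtain ⟨R', h1, h2, h3⟩ := exists_conj_pgroup hT hL hRL hRp L' hL'
    exact ⟨R', h1, h2, h3 ▸ hRc⟩
  intro A hAF hA u v huF hvF huA hvA
  obtain ⟨Ru, hRuN, hRup, hRuu, hRuw⟩ := exists_Ru hM hbig hAF hA huF huA
  obtain ⟨Rv, hRvN, hRvp, hRvv, hRvw⟩ := exists_Ru hM hbig hAF hA hvF hvA
  have horbA : ∀ w, (∃ g ∈ PS G A ⊓ Subgroup.normalizer (Q : Set (Equiv.Perm α)), g u = w) →
      w ∉ A := by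
    rintro w ⟨g, hg, rfl⟩ hgA
    have h1 : g (g u) = g u := hg.1.2 _ hgA
    exact huA (g.injective h1 ▸ hgA)
  obtain ⟨g, hg, hgu⟩ := exists_map_of_pgroups hM.prime
    (PS G A ⊓ Subgroup.normalizer (Q : Set (Equiv.Perm α))) Ru Rv u v hRuN hRvN hRup hRvp hRuu
    (fun w hw hne => hRuw w (horbA w hw) hne) (fun w hw hne => hRvw w (horbA w hw) hne)
  exact ⟨g, hg.1.1, pres_of_normalizer hM.fix hg.2, hg.1.2, hgu⟩

end Cfsg.Agent.Lib.Helper88.KAlt
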